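import Cfsg.Agent.Lib.ToddCox.Fi24_306936.Tab
set_option autoImplicit false
set_option maxRecDepth 100000
namespace Cfsg.Agent.Lib.ToddCox.Fi24_306936
theorem a0 : allBits chkAll 10 0 = true := by decide +kernel
theorem a1 : allBits chkAll 10 1024 = true := by decide +kernel
theorem a2 : allBits chkAll 10 2048 = true := by decide +kernel
theorem a3 : allBits chkAll 10 3072 = true := by decide +kernel
theorem a4 : allBits chkAll 10 4096 = true := by decide +kernel
theorem a5 : allBits chkAll 10 5120 = true := by decide +kernel
theorem a6 : allBits chkAll 10 6144 = true := by decide +kernel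
end Cfsg.Agent.Lib.ToddCox.Fi24_306936
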