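import Cfsg.Agent.Lib.ToddCox.Fi24_306936.Tab
set_option autoImplicit false
set_option maxRecDepth 100000
namespace Cfsg.Agent.Lib.ToddCox.Fi24_306936
theorem a105 : allBits chkAll 10 107520 = true := by decide +kernel
theorem a106 : allBits chkAll 10 108544 = true := by decide +kernel
theorem a107 : allBits chkAll 10 109568 = true := by decide +kernel
theorem a108 : allBits chkAll 10 110592 = true := by decide +kernel
theorem a109 : allBits chkAll 10 111616 = true := by decide +kernel
theorem a110 : allBits chkAll 10 112640 = true := by decide +kernel
theorem a111 : allBits chkAll 10 113664 = true := by decide +kernel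
end Cfsg.Agent.Lib.ToddCox.Fi24_306936
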