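import Cfsg.Agent.Lib.ToddCox.Fi24_306936.Tab
set_option autoImplicit false
set_option maxRecDepth 100000
namespace Cfsg.Agent.Lib.ToddCox.Fi24_306936
theorem a112 : allBits chkAll 10 114688 = true := by decide +kernel
theorem a113 : allBits chkAll 10 115712 = true := by decide +kernel
theorem a114 : allBits chkAll 10 116736 = true := by decide +kernel
theorem a115 : allBits chkAll 10 117760 = true := by decide +kernel
theorem a116 : allBits chkAll 10 118784 = true := by decide +kernel
theorem a117 : allBits chkAll 10 119808 = true := by decide +kernel
theorem a118 : allBits chkAll 10 120832 = true := by decide +kernel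
end Cfsg.Agent.Lib.ToddCox.Fi24_306936
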