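import Cfsg.Agent.Lib.ToddCox.Fi24_306936.Tab
set_option autoImplicit false
set_option maxRecDepth 100000
namespace Cfsg.Agent.Lib.ToddCox.Fi24_306936
theorem a119 : allBits chkAll 10 121856 = true := by decide +kernel
theorem a120 : allBits chkAll 10 122880 = true := by decide +kernel
theorem a121 : allBits chkAll 10 123904 = true := by decide +kernel
theorem a122 : allBits chkAll 10 124928 = true := by decide +kernel
theorem a123 : allBits chkAll 10 125952 = true := by decide +kernel
theorem a124 : allBits chkAll 10 126976 = true := by decide +kernel
theorem a125 : allBits chkAll 10 128000 = true := by decide +kernel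
end Cfsg.Agent.Lib.ToddCox.Fi24_306936
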