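import Cfsg.Agent.Lib.ToddCox.Fi24_306936.Tab
set_option autoImplicit false
set_option maxRecDepth 100000
namespace Cfsg.Agent.Lib.ToddCox.Fi24_306936
theorem a126 : allBits chkAll 10 129024 = true := by decide +kernel
theorem a127 : allBits chkAll 10 130048 = true := by decide +kernel
theorem a128 : allBits chkAll 10 131072 = true := by decide +kernel
theorem a129 : allBits chkAll 10 132096 = true := by decide +kernel
theorem a130 : allBits chkAll 10 133120 = true := by decide +kernel
theorem a131 : allBits chkAll 10 134144 = true := by decide +kernel
theorem a132 : allBits chkAll 10 135168 = true := by decide +kernel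
end Cfsg.Agent.Lib.ToddCox.Fi24_306936
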