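import Cfsg.Agent.Lib.ToddCox.Fi24_306936.Tab
set_option autoImplicit false
set_option maxRecDepth 100000
namespace Cfsg.Agent.Lib.ToddCox.Fi24_306936
theorem a133 : allBits chkAll 10 136192 = true := by decide +kernel
theorem a134 : allBits chkAll 10 137216 = true := by decide +kernel
theorem a135 : allBits chkAll 10 138240 = true := by decide +kernel
theorem a136 : allBits chkAll 10 139264 = true := by decide +kernel
theorem a137 : allBits chkAll 10 140288 = true := by decide +kernel
theorem a138 : allBits chkAll 10 141312 = true := by decide +kernel
theorem a139 : allBits chkAll 10 142336 = true := by decide +kernel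
end Cfsg.Agent.Lib.ToddCox.Fi24_306936
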