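import Cfsg.Agent.Lib.ToddCox.Fi24_306936.Tab
set_option autoImplicit false
set_option maxRecDepth 100000
namespace Cfsg.Agent.Lib.ToddCox.Fi24_306936
theorem a14 : allBits chkAll 10 14336 = true := by decide +kernel
theorem a15 : allBits chkAll 10 15360 = true := by decide +kernel
theorem a16 : allBits chkAll 10 16384 = true := by decide +kernel
theorem a17 : allBits chkAll 10 17408 = true := by decide +kernel
theorem a18 : allBits chkAll 10 18432 = true := by decide +kernel
theorem a19 : allBits chkAll 10 19456 = true := by decide +kernel
theorem a20 : allBits chkAll 10 20480 = true := by decide +kernel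
end Cfsg.Agent.Lib.ToddCox.Fi24_306936
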