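import Cfsg.Agent.Lib.ToddCox.Fi24_306936.Tab
set_option autoImplicit false
set_option maxRecDepth 100000
namespace Cfsg.Agent.Lib.ToddCox.Fi24_306936
theorem a140 : allBits chkAll 10 143360 = true := by decide +kernel
theorem a141 : allBits chkAll 10 144384 = true := by decide +kernel
theorem a142 : allBits chkAll 10 145408 = true := by decide +kernel
theorem a143 : allBits chkAll 10 146432 = true := by decide +kernel
theorem a144 : allBits chkAll 10 147456 = true := by decide +kernel
theorem a145 : allBits chkAll 10 148480 = true := by decide +kernel
theorem a146 : allBits chkAll 10 149504 = true := by decide +kernel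
end Cfsg.Agent.Lib.ToddCox.Fi24_306936
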