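import Cfsg.Agent.Lib.ToddCox.Fi24_306936.Tab
set_option autoImplicit false
set_option maxRecDepth 100000
namespace Cfsg.Agent.Lib.ToddCox.Fi24_306936
theorem a147 : allBits chkAll 10 150528 = true := by decide +kernel
theorem a148 : allBits chkAll 10 151552 = true := by decide +kernel
theorem a149 : allBits chkAll 10 152576 = true := by decide +kernel
theorem a150 : allBits chkAll 10 153600 = true := by decide +kernel
theorem a151 : allBits chkAll 10 154624 = true := by decide +kernel
theorem a152 : allBits chkAll 10 155648 = true := by decide +kernel
theorem a153 : allBits chkAll 10 156672 = true := by decide +kernel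
end Cfsg.Agent.Lib.ToddCox.Fi24_306936
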