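import Cfsg.Agent.Lib.ToddCox.Fi24_306936.Tab
set_option autoImplicit false
set_option maxRecDepth 100000
namespace Cfsg.Agent.Lib.ToddCox.Fi24_306936
theorem a154 : allBits chkAll 10 157696 = true := by decide +kernel
theorem a155 : allBits chkAll 10 158720 = true := by decide +kernel
theorem a156 : allBits chkAll 10 159744 = true := by decide +kernel
theorem a157 : allBits chkAll 10 160768 = true := by decide +kernel
theorem a158 : allBits chkAll 10 161792 = true := by decide +kernel
theorem a159 : allBits chkAll 10 162816 = true := by decide +kernel
theorem a160 : allBits chkAll 10 163840 = true := by decide +kernel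
end Cfsg.Agent.Lib.ToddCox.Fi24_306936
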