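import Cfsg.Agent.Lib.ToddCox.Fi24_306936.Tab
set_option autoImplicit false
set_option maxRecDepth 100000
namespace Cfsg.Agent.Lib.ToddCox.Fi24_306936
theorem a161 : allBits chkAll 10 164864 = true := by decide +kernel
theorem a162 : allBits chkAll 10 165888 = true := by decide +kernel
theorem a163 : allBits chkAll 10 166912 = true := by decide +kernel
theorem a164 : allBits chkAll 10 167936 = true := by decide +kernel
theorem a165 : allBits chkAll 10 168960 = true := by decide +kernel
theorem a166 : allBits chkAll 10 169984 = true := by decide +kernel
theorem a167 : allBits chkAll 10 171008 = true := by decide +kernel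
end Cfsg.Agent.Lib.ToddCox.Fi24_306936
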