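import Cfsg.Agent.Lib.ToddCox.Fi24_306936.Tab
set_option autoImplicit false
set_option maxRecDepth 100000
namespace Cfsg.Agent.Lib.ToddCox.Fi24_306936
theorem a168 : allBits chkAll 10 172032 = true := by decide +kernel
theorem a169 : allBits chkAll 10 173056 = true := by decide +kernel
theorem a170 : allBits chkAll 10 174080 = true := by decide +kernel
theorem a171 : allBits chkAll 10 175104 = true := by decide +kernel
theorem a172 : allBits chkAll 10 176128 = true := by decide +kernel
theorem a173 : allBits chkAll 10 177152 = true := by decide +kernel
theorem a174 : allBits chkAll 10 178176 = true := by decide +kernel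
end Cfsg.Agent.Lib.ToddCox.Fi24_306936
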