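import Cfsg.Agent.Lib.ToddCox.Fi24_306936.Tab
set_option autoImplicit false
set_option maxRecDepth 100000
namespace Cfsg.Agent.Lib.ToddCox.Fi24_306936
theorem a175 : allBits chkAll 10 179200 = true := by decide +kernel
theorem a176 : allBits chkAll 10 180224 = true := by decide +kernel
theorem a177 : allBits chkAll 10 181248 = true := by decide +kernel
theorem a178 : allBits chkAll 10 182272 = true := by decide +kernel
theorem a179 : allBits chkAll 10 183296 = true := by decide +kernel
theorem a180 : allBits chkAll 10 184320 = true := by decide +kernel
theorem a181 : allBits chkAll 10 185344 = true := by decide +kernel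
end Cfsg.Agent.Lib.ToddCox.Fi24_306936
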