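import Cfsg.Agent.Lib.ToddCox.Fi24_306936.Tab
set_option autoImplicit false
set_option maxRecDepth 100000
namespace Cfsg.Agent.Lib.ToddCox.Fi24_306936
theorem a182 : allBits chkAll 10 186368 = true := by decide +kernel
theorem a183 : allBits chkAll 10 187392 = true := by decide +kernel
theorem a184 : allBits chkAll 10 188416 = true := by decide +kernel
theorem a185 : allBits chkAll 10 189440 = true := by decide +kernel
theorem a186 : allBits chkAll 10 190464 = true := by decide +kernel
theorem a187 : allBits chkAll 10 191488 = true := by decide +kernel
theorem a188 : allBits chkAll 10 192512 = true := by decide +kernel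
end Cfsg.Agent.Lib.ToddCox.Fi24_306936
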