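import Cfsg.Agent.Lib.ToddCox.Fi24_306936.Tab
set_option autoImplicit false
set_option maxRecDepth 100000
namespace Cfsg.Agent.Lib.ToddCox.Fi24_306936
theorem a189 : allBits chkAll 10 193536 = true := by decide +kernel
theorem a190 : allBits chkAll 10 194560 = true := by decide +kernel
theorem a191 : allBits chkAll 10 195584 = true := by decide +kernel
theorem a192 : allBits chkAll 10 196608 = true := by decide +kernel
theorem a193 : allBits chkAll 10 197632 = true := by decide +kernel
theorem a194 : allBits chkAll 10 198656 = true := by decide +kernel
theorem a195 : allBits chkAll 10 199680 = true := by decide +kernel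
end Cfsg.Agent.Lib.ToddCox.Fi24_306936
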