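import Cfsg.Agent.Lib.ToddCox.Fi24_306936.Tab
set_option autoImplicit false
set_option maxRecDepth 100000
namespace Cfsg.Agent.Lib.ToddCox.Fi24_306936
theorem a196 : allBits chkAll 10 200704 = true := by decide +kernel
theorem a197 : allBits chkAll 10 201728 = true := by decide +kernel
theorem a198 : allBits chkAll 10 202752 = true := by decide +kernel
theorem a199 : allBits chkAll 10 203776 = true := by decide +kernel
theorem a200 : allBits chkAll 10 204800 = true := by decide +kernel
theorem a201 : allBits chkAll 10 205824 = true := by decide +kernel
theorem a202 : allBits chkAll 10 206848 = true := by decide +kernel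
end Cfsg.Agent.Lib.ToddCox.Fi24_306936
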