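import Cfsg.Agent.Lib.ToddCox.Fi24_306936.Tab
set_option autoImplicit false
set_option maxRecDepth 100000
namespace Cfsg.Agent.Lib.ToddCox.Fi24_306936
theorem a203 : allBits chkAll 10 207872 = true := by decide +kernel
theorem a204 : allBits chkAll 10 208896 = true := by decide +kernel
theorem a205 : allBits chkAll 10 209920 = true := by decide +kernel
theorem a206 : allBits chkAll 10 210944 = true := by decide +kernel
theorem a207 : allBits chkAll 10 211968 = true := by decide +kernel
theorem a208 : allBits chkAll 10 212992 = true := by decide +kernel
theorem a209 : allBits chkAll 10 214016 = true := by decide +kernel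
end Cfsg.Agent.Lib.ToddCox.Fi24_306936
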