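import Cfsg.Agent.Lib.ToddCox.Fi24_306936.Tab
set_option autoImplicit false
set_option maxRecDepth 100000
namespace Cfsg.Agent.Lib.ToddCox.Fi24_306936
theorem a21 : allBits chkAll 10 21504 = true := by decide +kernel
theorem a22 : allBits chkAll 10 22528 = true := by decide +kernel
theorem a23 : allBits chkAll 10 23552 = true := by decide +kernel
theorem a24 : allBits chkAll 10 24576 = true := by decide +kernel
theorem a25 : allBits chkAll 10 25600 = true := by decide +kernel
theorem a26 : allBits chkAll 10 26624 = true := by decide +kernel
theorem a27 : allBits chkAll 10 27648 = true := by decide +kernel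
end Cfsg.Agent.Lib.ToddCox.Fi24_306936
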