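import Cfsg.Agent.Lib.ToddCox.Fi24_306936.Tab
set_option autoImplicit false
set_option maxRecDepth 100000
namespace Cfsg.Agent.Lib.ToddCox.Fi24_306936
theorem a210 : allBits chkAll 10 215040 = true := by decide +kernel
theorem a211 : allBits chkAll 10 216064 = true := by decide +kernel
theorem a212 : allBits chkAll 10 217088 = true := by decide +kernel
theorem a213 : allBits chkAll 10 218112 = true := by decide +kernel
theorem a214 : allBits chkAll 10 219136 = true := by decide +kernel
theorem a215 : allBits chkAll 10 220160 = true := by decide +kernel
theorem a216 : allBits chkAll 10 221184 = true := by decide +kernel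
end Cfsg.Agent.Lib.ToddCox.Fi24_306936
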