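import Cfsg.Agent.Lib.ToddCox.Fi24_306936.Tab
set_option autoImplicit false
set_option maxRecDepth 100000
namespace Cfsg.Agent.Lib.ToddCox.Fi24_306936
theorem a217 : allBits chkAll 10 222208 = true := by decide +kernel
theorem a218 : allBits chkAll 10 223232 = true := by decide +kernel
theorem a219 : allBits chkAll 10 224256 = true := by decide +kernel
theorem a220 : allBits chkAll 10 225280 = true := by decide +kernel
theorem a221 : allBits chkAll 10 226304 = true := by decide +kernel
theorem a222 : allBits chkAll 10 227328 = true := by decide +kernel
theorem a223 : allBits chkAll 10 228352 = true := by decide +kernel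
end Cfsg.Agent.Lib.ToddCox.Fi24_306936
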