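import Cfsg.Agent.Lib.ToddCox.Fi24_306936.Tab
set_option autoImplicit false
set_option maxRecDepth 100000
namespace Cfsg.Agent.Lib.ToddCox.Fi24_306936
theorem a224 : allBits chkAll 10 229376 = true := by decide +kernel
theorem a225 : allBits chkAll 10 230400 = true := by decide +kernel
theorem a226 : allBits chkAll 10 231424 = true := by decide +kernel
theorem a227 : allBits chkAll 10 232448 = true := by decide +kernel
theorem a228 : allBits chkAll 10 233472 = true := by decide +kernel
theorem a229 : allBits chkAll 10 234496 = true := by decide +kernel
theorem a230 : allBits chkAll 10 235520 = true := by decide +kernel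
end Cfsg.Agent.Lib.ToddCox.Fi24_306936
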