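import Cfsg.Agent.Lib.ToddCox.Fi24_306936.Tab
set_option autoImplicit false
set_option maxRecDepth 100000
namespace Cfsg.Agent.Lib.ToddCox.Fi24_306936
theorem a231 : allBits chkAll 10 236544 = true := by decide +kernel
theorem a232 : allBits chkAll 10 237568 = true := by decide +kernel
theorem a233 : allBits chkAll 10 238592 = true := by decide +kernel
theorem a234 : allBits chkAll 10 239616 = true := by decide +kernel
theorem a235 : allBits chkAll 10 240640 = true := by decide +kernel
theorem a236 : allBits chkAll 10 241664 = true := by decide +kernel
theorem a237 : allBits chkAll 10 242688 = true := by decide +kernel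
end Cfsg.Agent.Lib.ToddCox.Fi24_306936
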