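import Cfsg.Agent.Lib.ToddCox.Fi24_306936.Tab
set_option autoImplicit false
set_option maxRecDepth 100000
namespace Cfsg.Agent.Lib.ToddCox.Fi24_306936
theorem a238 : allBits chkAll 10 243712 = true := by decide +kernel
theorem a239 : allBits chkAll 10 244736 = true := by decide +kernel
theorem a240 : allBits chkAll 10 245760 = true := by decide +kernel
theorem a241 : allBits chkAll 10 246784 = true := by decide +kernel
theorem a242 : allBits chkAll 10 247808 = true := by decide +kernel
theorem a243 : allBits chkAll 10 248832 = true := by decide +kernel
theorem a244 : allBits chkAll 10 249856 = true := by decide +kernel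
end Cfsg.Agent.Lib.ToddCox.Fi24_306936
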