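import Cfsg.Agent.Lib.ToddCox.Fi24_306936.Tab
set_option autoImplicit false
set_option maxRecDepth 100000
namespace Cfsg.Agent.Lib.ToddCox.Fi24_306936
theorem a245 : allBits chkAll 10 250880 = true := by decide +kernel
theorem a246 : allBits chkAll 10 251904 = true := by decide +kernel
theorem a247 : allBits chkAll 10 252928 = true := by decide +kernel
theorem a248 : allBits chkAll 10 253952 = true := by decide +kernel
theorem a249 : allBits chkAll 10 254976 = true := by decide +kernel
theorem a250 : allBits chkAll 10 256000 = true := by decide +kernel
theorem a251 : allBits chkAll 10 257024 = true := by decide +kernel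
end Cfsg.Agent.Lib.ToddCox.Fi24_306936
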