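import Cfsg.Agent.Lib.ToddCox.Fi24_306936.Tab
set_option autoImplicit false
set_option maxRecDepth 100000
namespace Cfsg.Agent.Lib.ToddCox.Fi24_306936
theorem a252 : allBits chkAll 10 258048 = true := by decide +kernel
theorem a253 : allBits chkAll 10 259072 = true := by decide +kernel
theorem a254 : allBits chkAll 10 260096 = true := by decide +kernel
theorem a255 : allBits chkAll 10 261120 = true := by decide +kernel
theorem a256 : allBits chkAll 10 262144 = true := by decide +kernel
theorem a257 : allBits chkAll 10 263168 = true := by decide +kernel
theorem a258 : allBits chkAll 10 264192 = true := by decide +kernel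
end Cfsg.Agent.Lib.ToddCox.Fi24_306936
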