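import Cfsg.Agent.Lib.ToddCox.Fi24_306936.Tab
set_option autoImplicit false
set_option maxRecDepth 100000
namespace Cfsg.Agent.Lib.ToddCox.Fi24_306936
theorem a259 : allBits chkAll 10 265216 = true := by decide +kernel
theorem a260 : allBits chkAll 10 266240 = true := by decide +kernel
theorem a261 : allBits chkAll 10 267264 = true := by decide +kernel
theorem a262 : allBits chkAll 10 268288 = true := by decide +kernel
theorem a263 : allBits chkAll 10 269312 = true := by decide +kernel
theorem a264 : allBits chkAll 10 270336 = true := by decide +kernel
theorem a265 : allBits chkAll 10 271360 = true := by decide +kernel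
end Cfsg.Agent.Lib.ToddCox.Fi24_306936
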