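import Cfsg.Agent.Lib.ToddCox.Fi24_306936.Tab
set_option autoImplicit false
set_option maxRecDepth 100000
namespace Cfsg.Agent.Lib.ToddCox.Fi24_306936
theorem a266 : allBits chkAll 10 272384 = true := by decide +kernel
theorem a267 : allBits chkAll 10 273408 = true := by decide +kernel
theorem a268 : allBits chkAll 10 274432 = true := by decide +kernel
theorem a269 : allBits chkAll 10 275456 = true := by decide +kernel
theorem a270 : allBits chkAll 10 276480 = true := by decide +kernel
theorem a271 : allBits chkAll 10 277504 = true := by decide +kernel
theorem a272 : allBits chkAll 10 278528 = true := by decide +kernel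
end Cfsg.Agent.Lib.ToddCox.Fi24_306936
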