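import Cfsg.Agent.Lib.ToddCox.Fi24_306936.Tab
set_option autoImplicit false
set_option maxRecDepth 100000
namespace Cfsg.Agent.Lib.ToddCox.Fi24_306936
theorem a273 : allBits chkAll 10 279552 = true := by decide +kernel
theorem a274 : allBits chkAll 10 280576 = true := by decide +kernel
theorem a275 : allBits chkAll 10 281600 = true := by decide +kernel
theorem a276 : allBits chkAll 10 282624 = true := by decide +kernel
theorem a277 : allBits chkAll 10 283648 = true := by decide +kernel
theorem a278 : allBits chkAll 10 284672 = true := by decide +kernel
theorem a279 : allBits chkAll 10 285696 = true := by decide +kernel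
end Cfsg.Agent.Lib.ToddCox.Fi24_306936
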