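import Cfsg.Agent.Lib.ToddCox.Fi24_306936.Tab
set_option autoImplicit false
set_option maxRecDepth 100000
namespace Cfsg.Agent.Lib.ToddCox.Fi24_306936
theorem a28 : allBits chkAll 10 28672 = true := by decide +kernel
theorem a29 : allBits chkAll 10 29696 = true := by decide +kernel
theorem a30 : allBits chkAll 10 30720 = true := by decide +kernel
theorem a31 : allBits chkAll 10 31744 = true := by decide +kernel
theorem a32 : allBits chkAll 10 32768 = true := by decide +kernel
theorem a33 : allBits chkAll 10 33792 = true := by decide +kernel
theorem a34 : allBits chkAll 10 34816 = true := by decide +kernel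
end Cfsg.Agent.Lib.ToddCox.Fi24_306936
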