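import Cfsg.Agent.Lib.ToddCox.Fi24_306936.Tab
set_option autoImplicit false
set_option maxRecDepth 100000
namespace Cfsg.Agent.Lib.ToddCox.Fi24_306936
theorem a280 : allBits chkAll 10 286720 = true := by decide +kernel
theorem a281 : allBits chkAll 10 287744 = true := by decide +kernel
theorem a282 : allBits chkAll 10 288768 = true := by decide +kernel
theorem a283 : allBits chkAll 10 289792 = true := by decide +kernel
theorem a284 : allBits chkAll 10 290816 = true := by decide +kernel
theorem a285 : allBits chkAll 10 291840 = true := by decide +kernel
theorem a286 : allBits chkAll 10 292864 = true := by decide +kernel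
end Cfsg.Agent.Lib.ToddCox.Fi24_306936
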