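import Cfsg.Agent.Lib.ToddCox.Fi24_306936.Tab
set_option autoImplicit false
set_option maxRecDepth 100000
namespace Cfsg.Agent.Lib.ToddCox.Fi24_306936
theorem a287 : allBits chkAll 10 293888 = true := by decide +kernel
theorem a288 : allBits chkAll 10 294912 = true := by decide +kernel
theorem a289 : allBits chkAll 10 295936 = true := by decide +kernel
theorem a290 : allBits chkAll 10 296960 = true := by decide +kernel
theorem a291 : allBits chkAll 10 297984 = true := by decide +kernel
theorem a292 : allBits chkAll 10 299008 = true := by decide +kernel
theorem a293 : allBits chkAll 10 300032 = true := by decide +kernel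
end Cfsg.Agent.Lib.ToddCox.Fi24_306936
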