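import Cfsg.Agent.Lib.ToddCox.Fi24_306936.Tab
set_option autoImplicit false
set_option maxRecDepth 100000
namespace Cfsg.Agent.Lib.ToddCox.Fi24_306936
theorem a294 : allBits chkAll 10 301056 = true := by decide +kernel
theorem a295 : allBits chkAll 10 302080 = true := by decide +kernel
theorem a296 : allBits chkAll 10 303104 = true := by decide +kernel
theorem a297 : allBits chkAll 10 304128 = true := by decide +kernel
theorem a298 : allBits chkAll 10 305152 = true := by decide +kernel
theorem a299 : allBits chkAll 10 306176 = true := by decide +kernel
end Cfsg.Agent.Lib.ToddCox.Fi24_306936
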