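import Cfsg.Agent.Lib.ToddCox.Fi24_306936.Tab
set_option autoImplicit false
set_option maxRecDepth 100000
namespace Cfsg.Agent.Lib.ToddCox.Fi24_306936
theorem a35 : allBits chkAll 10 35840 = true := by decide +kernel
theorem a36 : allBits chkAll 10 36864 = true := by decide +kernel
theorem a37 : allBits chkAll 10 37888 = true := by decide +kernel
theorem a38 : allBits chkAll 10 38912 = true := by decide +kernel
theorem a39 : allBits chkAll 10 39936 = true := by decide +kernel
theorem a40 : allBits chkAll 10 40960 = true := by decide +kernel
theorem a41 : allBits chkAll 10 41984 = true := by decide +kernel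
end Cfsg.Agent.Lib.ToddCox.Fi24_306936
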